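import Cfsg.Agent.Fisch.F24.X
import Cfsg.Agent.Fisch.St.Uq
import Cfsg.Agent.Fisch.F24.L2

set_option autoImplicit false
set_option maxRecDepth 1000000
set_option maxHeartbeats 0
set_option Elab.async false

namespace CF.Fisch.F24.Uq

open CF.Comp CF.Fisch CF.Fisch.F24 Subgroup
open scoped Pointwise


theorem nt2 : nttOK eq0 j2 [(nat_lit 31)] = true := by decide +kernel
theorem nt3 : nttOK eq0 j3 [(nat_lit 29)] = true := by decide +kernel
theorem nt4 : nttOK eq0 j4 [(nat_lit 31)] = true := by decide +kernel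

variable {G : Type*} [Group G] {D : Set G} {E : Dom (Cj G) 306936} {f : ℕ → G} {NN : List Net}

theorem uniq (M : M24 D E f) {D' : Set G} (h : Cfsg.IsThreeTranspositionClass D') : D' = D :=
  class_unique M.primTT.cls h (M.xs_spec 1 le_rfl (by decide)).2.1 (L2.invs M) fun m a b => by
    interval_cases m
    exacts [M.sm0.ntt nt2 h, M.sm0.ntt nt3 h, M.sm0.ntt nt4 h]

end CF.Fisch.F24.Uq
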